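import Cfsg.Agent.Lib.Helper3.Stcs6

set_option autoImplicit false
set_option maxRecDepth 100000

namespace Cfsg.Agent.Lib.Helper3.U42

open Cfsg.Agent.Lib.Helper11 Cfsg.Agent.Lib.Helper3

set_option maxHeartbeats 0

noncomputable def ntl : List (List (ℕ × ℕ)) := [[], [(0xc62baa5c, 32), (0xe74300006e12, 16), (0x69008a00d00071, 8), (0x4020c0c0900080d, 4), (0x323222123030, 2), (0x401145114045040, 1), (0x200200020020020, 2), (0xc00040c08000804, 4), (0x4a000800d00060, 8), (0x674800006702, 16), (0xc62bae7c, 32)], [(0xc8bab13a, 32), (0x77600002867, 16), (0xa40028005c00d8, 8), (0x80e0a0104010601, 4), (0x330220001032201, 2), (0x4444101100114100, 1), (0x2020200200020000, 2), (0xe06020004020204, 4), (0xe000a0005e0098, 8), (0x7c400002b22, 16), (0xc8baada0, 32)], [(0xc62bae7c, 32), (0x90a700006702, 16), (0xf400b100d0009d, 8), (0xc0d080c07000b08, 4), (0x2211200202120130, 2), (0x4045110441040150, 1), (0x2000200022020000, 2), (0xc000a0406000208, 4), (0xf4009200d0008c, 8), (0x10ac00006e12, 16), (0xc62baa5c, 32)], [(0xf74b714e, 32), (0x15cf00001c08,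 16), (0x1e007100b000e2, 8), (0x603060606080c00, 4), (0x110310132202301, 2), (0x140441510100101, 1), (0x220200020200000, 2), (0xa0600040e080400, 4), (0x1c000200a00060, 8), (0x55840000140c, 16), (0xf74b6e90, 32)], [(0x80000000, 32), (0x800000000000, 16), (0xc000000080, 8), (0xc0808000908, 4), (0x200230003330, 2), (0x151150545550, 1), (0x200200000000, 2), (0xc0808000008, 4), (0xc000000080, 8), (0x800000000000, 16), (0x80000000, 32)], [(0x200000, 32), (0x6aa0000bf8e, 16), (0xaa005000f40054, 8), (0xa000406040b0708, 4), (0x11021032022, 2), (0x400040115555010, 1), (0x200000020000020, 2), (0x40600000c0a, 4), (0xa8005000f40008, 8), (0x6aa00005554, 16), (0x200000, 32)], [(0x200000, 32), (0x6aa00005554, 16), (0x6005000f40048, 8), (0xe0406000f030a, 4), (0x20031022300122, 2), (0x40010115550510, 1), (0x20020000020, 2), (0x4040604040808, 4), (0x4005000f40014, 8), (0x6aa0000bf8e, 16), (0x200000, 32)], [(0x80000000, 32), (0x800000000000, 16), (0xc000000080, 8), (0xc0808000908, 4), (0x200230003330, 2), (0x151150545550, 1), (0x200200000000, 2), (0xc0808000008,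 4), (0xc000000080, 8), (0x800000000000, 16), (0x80000000, 32)], [(0x50000000, 32), (0x50000000b600, 16), (0x1600c50022, 8), (0x90d07010e04, 4), (0x133213220120, 2), (0x441015144514, 1), (0x22020020022, 2), (0xc0a00080a0e, 4), (0x4a00620082, 8), (0x500000009e00, 16), (0x50000000, 32)], [(0x50000000, 32), (0x500000009e00, 16), (0x4a009d0082, 8), (0x205070f0e0e, 4), (0x132120310222, 2), (0x110441544514, 1), (0x20022020020, 2), (0x2020e080604, 4), (0x16003a0022, 8), (0x50000000b600, 16), (0x50000000, 32)], [(0x80000000, 32), (0x800000000000, 16), (0xc000000080, 8), (0xc0808000908, 4), (0x200230003330, 2), (0x151150545550, 1), (0x200200000000, 2), (0xc0808000008, 4), (0xc000000080, 8), (0x800000000000, 16), (0x80000000, 32)]]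
noncomputable def INV : ℕ := 406810720028627040
abbrev deg : ℕ := 45

theorem setup : NetSetup ntl deg 6 INV 11 where
  hok := by decide +kernel
  hstab := by decide +kernel
  hlen := by decide +kernel
  h0 := by decide +kernel
  hINV := by decide +kernel
  hINV0 := by decide +kernel
  htriv := by decide +kernel

end Cfsg.Agent.Lib.Helper3.U42
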