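import Mathlib

set_option autoImplicit false
set_option maxRecDepth 100000

namespace Cfsg.Agent.Lib.Helper3.U42.L4

noncomputable def fc0_0 (i : ℕ) : ℕ := (nat_lit 0x2b00000100000b)
noncomputable def sc0_0 (i : ℕ) : ℕ := (nat_lit 0xffff)
noncomputable def nc0_0 (i : ℕ) : ℕ := (nat_lit 0x1000000)
noncomputable def cc0_0 (i : ℕ) : ℕ := (nat_lit 0x1000001)

end Cfsg.Agent.Lib.Helper3.U42.L4
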