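import Cfsg.Agent.Lib.Helper3.U42.Main
import Cfsg.Agent.Lib.Helper3.MatL2
import Cfsg.Agent.Lib.Helper3.MatL3
import Cfsg.Agent.Lib.Helper3.F4

set_option autoImplicit false
set_option maxRecDepth 100000

namespace Cfsg.Agent.Lib.Helper3.U42

open Cfsg.Agent.Lib.Helper11 Cfsg.Agent.Lib.Helper3 Matrix

set_option maxHeartbeats 0

def AL : List (List (F4)) := [[F4.w, F4.w2, F4.z, F4.w], [F4.z, F4.w2, F4.w, F4.w], [F4.w2, F4.o, F4.w2, F4.z], [F4.w, F4.z, F4.w, F4.w]]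
def BL : List (List (F4)) := [[F4.w2, F4.o, F4.o, F4.z], [F4.z, F4.w2, F4.w2, F4.o], [F4.w, F4.w2, F4.z, F4.o], [F4.w, F4.z, F4.w2, F4.o]]
def AtL : List (List (F4)) := [[F4.w, F4.z, F4.w2, F4.w], [F4.w2, F4.w2, F4.o, F4.z], [F4.z, F4.w, F4.w2, F4.w], [F4.w, F4.w, F4.z, F4.w]]
def BtL : List (List (F4)) := [[F4.w2, F4.z, F4.w, F4.w], [F4.o, F4.w2, F4.w2, F4.z], [F4.o, F4.w2, F4.z, F4.w2], [F4.z, F4.o, F4.o, F4.o]]
def AcL : List (List (F4)) := [[F4.w2, F4.w, F4.z, F4.w2], [F4.z, F4.w, F4.w2, F4.w2], [F4.w, F4.o, F4.w, F4.z], [F4.w2, F4.z, F4.w2, F4.w2]]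
def BcL : List (List (F4)) := [[F4.w, F4.o, F4.o, F4.z], [F4.z, F4.w, F4.w, F4.o], [F4.w2, F4.w, F4.z, F4.o], [F4.w2, F4.z, F4.w, F4.o]]
def frInvL : List (List (F4)) := [[F4.w, F4.w, F4.w2, F4.o], [F4.w2, F4.w, F4.w, F4.w], [F4.z, F4.w, F4.w2, F4.w2], [F4.z, F4.w, F4.w, F4.z]]
def frAL : List (F4) := [F4.o, F4.o, F4.w, F4.w]
def frBL : List ℕ := [15, 19, 6, 25]
def frI : Fin 45 := 1
def PT : ℕ := 0xd0905adf95da9fd59f5a5556db9dd69bdd9b565d5ed799de97d9975e595313421241114c1c481844144d09050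
def CS1 : ℕ := 0x2de95eed7ad5eadaeef965e
def CS2 : ℕ := 0x26a7f7e9f5fa7d5e9ef7755
def IMG1 : ℕ := 0x35295e06459a21dd41f25120e62c9c029686b78118d69c55b12aa248d308b3e548c
def IMG2 : ℕ := 0x36967862a984d501ad14dfa2515c1e33185ea98210b9c981055b02222c3e474e652
def pt (i : ℕ) : List (F4) := ptOf F4.dec PT 2 4 i
def witJ : Fin 4 := 0
def witK : Fin 4 := 2

theorem chk1 : genChkW [AL] pt (fun i => F4.dec (tb CS1 2 i)) (tb IMG1 6) ntl 1 45 := by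
  decide +kernel
theorem chk2 : genChkW [BL] pt (fun i => F4.dec (tb CS2 2 i)) (tb IMG2 6) ntl 2 45 := by
  decide +kernel

end Cfsg.Agent.Lib.Helper3.U42
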