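import Cfsg.Agent.Lib.Helper3.U42.Mat
import Cfsg.Agent.S0280
import Cfsg.Agent.Lib.Helper3.MatChk

set_option autoImplicit false
set_option maxRecDepth 100000

namespace Cfsg.Agent.Lib.Helper3.U42

open Cfsg.Agent.Lib.Helper11 Cfsg.Agent.Lib.Helper3 Matrix

set_option maxHeartbeats 0

abbrev ee : Fin 4 ≃ Fin 4 := Equiv.refl _

/-- the Frobenius map -/
def frob : F4 →+* F4 where
  toFun x := x ^ 2
  map_one' := by decide +kernel
  map_mul' := by decide +kernel
  map_zero' := by decide +kernel
  map_add' := by decide +kernel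

theorem detA : (toM ee AL).det = 1 := by
  have h0 := prod_toM_eq ee (List.replicate 4 AL) [] (by decide) (by simp) (by decide +kernel)
  have h1 := congrArg Matrix.det h0
  simp only [List.replicate, List.map_cons, List.map_nil, List.prod_cons, List.prod_nil, Matrix.det_mul,
    Matrix.det_one, mul_one] at h1
  revert h1
  generalize (toM ee AL).det = x
  revert x
  decide

theorem detB : (toM ee BL).det = 1 := by
  have h0 := prod_toM_eq ee (List.replicate 5 BL) [] (by decide) (by simp) (by decide +kernel)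
  have h1 := congrArg Matrix.det h0
  simp only [List.replicate, List.map_cons, List.map_nil, List.prod_cons, List.prod_nil, Matrix.det_mul,
    Matrix.det_one, mul_one] at h1
  revert h1
  generalize (toM ee BL).det = x
  revert x
  decide

theorem uniA : (toM ee AL)ᵀ * (toM ee AL).map frob = 1 := by
  have h1 : toM ee AtL = (toM ee AL)ᵀ := by decide +kernel
  have h2 : toM ee AcL = (toM ee AL).map frob := by decide +kernel
  rw [← h1, ← h2]
  have := prod_toM_eq ee [AtL, AcL] [] (by decide) (by simp) (by decide +kernel)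
  simpa using this

theorem uniB : (toM ee BL)ᵀ * (toM ee BL).map frob = 1 := by
  have h1 : toM ee BtL = (toM ee BL)ᵀ := by decide +kernel
  have h2 : toM ee BcL = (toM ee BL).map frob := by decide +kernel
  rw [← h1, ← h2]
  have := prod_toM_eq ee [BtL, BcL] [] (by decide) (by simp) (by decide +kernel)
  simpa using this

abbrev SUd : Type := Cfsg.SU 4 (F4) 2

def gA : SUd :=
  ⟨⟨toM ee AL, detA⟩, fun u v => herm_preserved 4 2 frob (fun _ => rfl) _ uniA u v⟩
def gB : SUd :=
  ⟨⟨toM ee BL, detB⟩, fun u v => herm_preserved 4 2 frob (fun _ => rfl) _ uniB u v⟩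

def TT : SUd →* Matrix (Fin 4) (Fin 4) (F4) :=
  (Cfsg.slToMat 4 (F4)).comp (Cfsg.SU 4 (F4) 2).subtype

theorem TT_inj : Function.Injective TT := by
  intro x y h
  apply Subtype.ext
  apply Matrix.SpecialLinearGroup.ext
  intro i j
  exact congrFun (congrFun h i) j

def vM (l : ℕ) : SUd := if l = 1 then gA else if l = 2 then gB else 1

theorem card_psu : Nat.card (Cfsg.PSU 4 (F4) 2) = 25920 := by
  have h := Cfsg.Agent.S0280.result (F := F4) (q := 2) F4.card_eq 4 (by norm_num)
  have h2 : (∏ i ∈ Finset.range 4, (if Even i then 2 ^ (i + 1) + 1 else 2 ^ (i + 1) - 1)) = 1215 := by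
    decide
  rw [h2] at h
  norm_num at h
  omega

def pp : Fin 45 → Fin 4 → F4 := fun i => toV ee (pt i)

def frB : Fin 4 → Fin 45 := fun k => ⟨frBL.getD k 0 % 45, Nat.mod_lt _ (by norm_num)⟩

theorem ncOK : (mvW [AL, BL] (basL 4 witJ)).getD witK 0 ≠ (mvW [BL, AL] (basL 4 witJ)).getD witK 0 := by
  decide +kernel

theorem psu_iso : Nonempty (Cfsg.PSU 4 (F4) 2 ≃* lgrp (vL ntl deg) [1, 2]) := by
  apply quot_iso_of_graph (projGraph TT pp) (Subgroup.center SUd)
    _ vM (vL ntl deg) [1, 2] _ simple 25920 card_eq card_psu (by norm_num)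
  · refine ⟨1, by simp, ?_⟩
    intro h
    have h1 := (Subgroup.mem_center_iff.1 h) gB
    have h2 : TT (gB * gA) = TT (gA * gB) := congrArg TT h1
    have h3 : TT (gA * gB) = ([AL, BL].map (toM ee)).prod := by simp; rfl
    have h4 : TT (gB * gA) = ([BL, AL].map (toM ee)).prod := by simp; rfl
    rw [h3, h4] at h2
    exact prod_toM_ne ee _ _ (by decide) (by decide) witJ witK ncOK h2.symm
  · intro g hg
    obtain ⟨c0, hc⟩ := scalar_of_projGraph TT pp frB frI (toM ee frInvL) (toV ee frAL)
      (by decide +kernel) (by decide +kernel) (by decide +kernel) g hg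
    exact mem_center_of_scalar TT TT_inj g c0 hc
  · intro x hx
    simp only [List.mem_cons, List.mem_nil_iff, or_false] at hx
    rcases hx with rfl | rfl
    · exact setup.mem_projGraph_of_chkW TT gA ee [AL] (by decide) (by simp; rfl) pt
        (fun i => ptOf_length _ _ _ _ _) _ _ 1 chk1
    · exact setup.mem_projGraph_of_chkW TT gB ee [BL] (by decide) (by simp; rfl) pt
        (fun i => ptOf_length _ _ _ _ _) _ _ 2 chk2

end Cfsg.Agent.Lib.Helper3.U42
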